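import Mathlib
import Cfsg.Agent.Lib.Helper60.U64.Defs
import Cfsg.Agent.Lib.Helper40.UnitaryWall
import Cfsg.Agent.Lib.Helper40.Diag

/-!
# U64 (S6001): unitary `4 × 4` matrices with cube one

For a primitive cube root of unity `ω` fixed by `t ↦ t ^ p`, a unitary matrix `t` with `t ^ 3 = 1`
has eigenvalue multiplicities `(4,0,0)`, `(2,1,1)` or `(0,2,2)`, detected by its trace
(`4`, `1`, `-2`).
-/

set_option autoImplicit false

namespace Cfsg.Agent.Lib.Helper74.U64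

open Matrix Polynomial Cfsg.Agent.Lib.Helper60.U64 Cfsg.Agent.Lib.Helper40.UnitaryWall
  Cfsg.Agent.Lib.Helper45 Cfsg.Agent.Lib.Helper40.Diag

universe u

section cube

variable {F : Type u} [Field F]

/-- the three cube roots of unity -/
def zeta3 (ω : F) : Fin 3 → F := ![1, ω, ω ^ 2]

theorem omega_facts (ω : F) (hω : ω * ω + ω + 1 = 0) (h1 : ω ≠ 1) :
    ω ^ 3 = 1 ∧ ω ≠ 0 ∧ ω ^ 2 ≠ 1 ∧ ω ^ 2 ≠ ω ∧ (3 : F) ≠ 0 := by
  have h3 : ω ^ 3 = 1 := by linear_combination (ω - 1) * hω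
  have h0 : ω ≠ 0 := by
    intro h; rw [h] at hω; simp at hω
  refine ⟨h3, h0, ?_, ?_, ?_⟩
  · intro h
    apply h1
    have h4 : ω ^ 3 = ω := by rw [pow_succ, h, one_mul]
    rw [← h4, h3]
  · intro h
    have h4 : ω * (ω - 1) = 0 := by linear_combination h
    rcases mul_eq_zero.mp h4 with h' | h'
    · exact h0 h'
    · exact h1 (sub_eq_zero.mp h')
  · intro h
    have h4 : (ω - 1) ^ 2 = 0 := by linear_combination hω - ω * h
    exact h1 (sub_eq_zero.mp ((pow_eq_zero_iff two_ne_zero).mp h4))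

theorem zeta3_pow3 (ω : F) (hω : ω * ω + ω + 1 = 0) (h1 : ω ≠ 1) (j : Fin 3) :
    zeta3 ω j ^ 3 = 1 := by
  obtain ⟨h3, -, -, -, -⟩ := omega_facts ω hω h1
  fin_cases j
  · show (1 : F) ^ 3 = 1
    exact one_pow 3
  · show ω ^ 3 = 1
    exact h3
  · show (ω ^ 2) ^ 3 = 1
    rw [← pow_mul, mul_comm, pow_mul, h3, one_pow]

theorem zeta3_injective (ω : F) (hω : ω * ω + ω + 1 = 0) (h1 : ω ≠ 1) :
    Function.Injective (zeta3 ω) := by
  obtain ⟨h3, h0, h21, h2ω, -⟩ := omega_facts ω hω h1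
  intro a b hab
  fin_cases a <;> fin_cases b <;>
    first
    | rfl
    | exact absurd hab h1
    | exact absurd hab.symm h1
    | exact absurd hab h21
    | exact absurd hab.symm h21
    | exact absurd hab h2ω
    | exact absurd hab.symm h2ω

theorem prod_zeta3 [DecidableEq F] (ω : F) (hω : ω * ω + ω + 1 = 0) (h1 : ω ≠ 1) :
    (∏ ζ ∈ ({1, ω, ω ^ 2} : Finset F), (X - C ζ)) = X ^ 3 - 1 := by
  obtain ⟨h3, h0, h21, h2ω, -⟩ := omega_facts ω hω h1
  rw [Finset.prod_insert (by simp [Ne.symm h1, Ne.symm h21]), Finset.prod_pair (Ne.symm h2ω)]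
  have hC : (C ω : F[X]) * C ω + C ω + 1 = 0 := by
    rw [← C_mul, ← C_1, ← C_add, ← C_add, hω, C_0]
  rw [C_pow, C_1]
  linear_combination ((X - 1) * (C ω - 1 - X)) * hC

theorem cube_model [DecidableEq F] (ω : F) (hω : ω * ω + ω + 1 = 0) (h1 : ω ≠ 1)
    (t : M4 F) (ht : t ^ 3 = 1) :
    ∃ (P : GL (Fin 4) F) (τ : Fin 4 → Fin 3),
      (P : M4 F) * Matrix.diagonal (fun i => zeta3 ω (τ i)) = t * (P : M4 F) ∧
      (∀ j : Fin 3, Fintype.card {i // τ i = j} + (t - zeta3 ω j • (1 : M4 F)).rank = 4) ∧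
      ∑ j : Fin 3, Fintype.card {i // τ i = j} = 4 := by
  obtain ⟨h3, h0, h21, h2ω, -⟩ := omega_facts ω hω h1
  have hprod := prod_zeta3 ω hω h1
  have hpoly : aeval t (∏ ζ ∈ ({1, ω, ω ^ 2} : Finset F), (X - C ζ)) = 0 := by
    rw [hprod]; simp [ht]
  have hsum := sum_sub_rank t {1, ω, ω ^ 2} hpoly
  rw [Finset.sum_insert (by simp [Ne.symm h1, Ne.symm h21]), Finset.sum_pair (Ne.symm h2ω)]
    at hsum
  have hle : ∀ ζ : F, (t - ζ • (1 : M4 F)).rank ≤ 4 := fun ζ => Matrix.rank_le_width _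
  have ha : ∑ j : Fin 3, (4 - (t - zeta3 ω j • (1 : M4 F)).rank) = 4 := by
    rw [Fin.sum_univ_three]
    show (4 - (t - (1 : F) • (1 : M4 F)).rank) + (4 - (t - ω • (1 : M4 F)).rank) +
      (4 - (t - ω ^ 2 • (1 : M4 F)).rank) = 4
    omega
  obtain ⟨τ, hτ⟩ := exists_fibre_card (n := 4)
    (fun j : Fin 3 => 4 - (t - zeta3 ω j • (1 : M4 F)).rank) ha
  have hcard : ∀ j : Fin 3,
      Fintype.card {i // τ i = j} + (t - zeta3 ω j • (1 : M4 F)).rank = 4 := by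
    intro j
    rw [hτ j]
    have h4 := hle (zeta3 ω j)
    omega
  have hrank : ∀ j : Fin 3,
      (Matrix.diagonal (fun i => zeta3 ω (τ i)) - zeta3 ω j • (1 : M4 F)).rank =
        (t - zeta3 ω j • (1 : M4 F)).rank := by
    intro j
    have h4 := rank_diagonal_sub (fun i => zeta3 ω (τ i)) (zeta3 ω j)
    have h5 : Fintype.card {i // zeta3 ω (τ i) = zeta3 ω j} = Fintype.card {i // τ i = j} :=
      Fintype.card_congr (Equiv.subtypeEquivRight (fun i => (zeta3_injective ω hω h1).eq_iff))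
    have h6 := hcard j
    omega
  have hdpoly : aeval (Matrix.diagonal (fun i => zeta3 ω (τ i)) : M4 F)
      (∏ ζ ∈ ({1, ω, ω ^ 2} : Finset F), (X - C ζ)) = 0 := by
    rw [hprod]
    simp only [map_sub, map_pow, aeval_X, map_one]
    rw [Matrix.diagonal_pow]
    have h4 : (fun i => zeta3 ω (τ i)) ^ 3 = (1 : Fin 4 → F) := by
      funext i
      rw [Pi.pow_apply]
      exact zeta3_pow3 ω hω h1 (τ i)
    rw [h4]
    show Matrix.diagonal (fun _ : Fin 4 => (1 : F)) - 1 = 0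
    rw [Matrix.diagonal_one, sub_self]
  obtain ⟨P, hP⟩ := similar_of_rank_eq _ t {1, ω, ω ^ 2} hdpoly hpoly (by
    intro ζ hζ
    simp only [Finset.mem_insert, Finset.mem_singleton] at hζ
    rcases hζ with h | h | h
    · rw [h]; exact hrank 0
    · rw [h]; exact hrank 1
    · rw [h]; exact hrank 2)
  refine ⟨P, τ, hP, hcard, ?_⟩
  rw [Finset.sum_congr rfl (fun j _ => hτ j)]
  exact ha

theorem trace_conj_eq (P : GL (Fin 4) F) (A B : M4 F)
    (h : (P : M4 F) * A = B * (P : M4 F)) : B.trace = A.trace := by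
  have hB : B = (P : M4 F) * A * ((P⁻¹ : GL (Fin 4) F) : M4 F) := by
    rw [h, Units.mul_inv_cancel_right]
  rw [hB, Matrix.trace_mul_comm, Units.inv_mul_cancel_left]

theorem sum_fibre (τ : Fin 4 → Fin 3) (g : Fin 3 → F) :
    ∑ i, g (τ i) = ∑ j, (Fintype.card {i // τ i = j} : F) * g j := by
  rw [← Finset.sum_fiberwise Finset.univ τ (fun i => g (τ i))]
  refine Finset.sum_congr rfl (fun j _ => ?_)
  have h1 : ∀ i ∈ Finset.univ.filter (fun i => τ i = j), g (τ i) = g j := by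
    intro i hi
    rw [(Finset.mem_filter.mp hi).2]
  rw [Finset.sum_congr rfl h1, Finset.sum_const, nsmul_eq_mul, Fintype.card_subtype]

theorem nat_eq_of_cast_eq (h2 : (2 : F) ≠ 0) (h3 : (3 : F) ≠ 0) (m n : ℕ) (hmn : m ≤ n)
    (hn : n ≤ 4) (h : (m : F) = (n : F)) : m = n := by
  obtain ⟨d, rfl⟩ := Nat.exists_eq_add_of_le hmn
  have hd : (d : F) = 0 := by
    rw [Nat.cast_add] at h
    linear_combination -h
  have hd4 : d ≤ 4 := by omega
  interval_cases d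
  · rfl
  · simp at hd
  · exact absurd (by exact_mod_cast hd) h2
  · exact absurd (by exact_mod_cast hd) h3
  · exfalso
    have h4 : (2 : F) * 2 = 0 := by
      have h5 : ((4 : ℕ) : F) = 2 * 2 := by norm_num
      rw [← h5]; exact hd
    exact h2 (mul_self_eq_zero.mp h4)

end cube

/-- the type of a unitary matrix with cube one -/
theorem cube_type {F : Type u} [Field F] [Fintype F] [DecidableEq F] {p : ℕ}
    (hF : Fintype.card F = p ^ 2) (ω : F) (hω : ω * ω + ω + 1 = 0) (h1 : ω ≠ 1)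
    (hωp : ω ^ p = ω) (h2 : (2 : F) ≠ 0) (t : M4 F) (ht : t ^ 3 = 1)
    (hu : cstar (sigmaQ hF) t * t = 1) :
    ((t - (1 : F) • (1 : M4 F)).rank = 0 ∧ (t - ω • (1 : M4 F)).rank = 4 ∧
        (t - ω ^ 2 • (1 : M4 F)).rank = 4 ∧ t.trace = 4) ∨
    ((t - (1 : F) • (1 : M4 F)).rank = 2 ∧ (t - ω • (1 : M4 F)).rank = 3 ∧
        (t - ω ^ 2 • (1 : M4 F)).rank = 3 ∧ t.trace = 1) ∨
    ((t - (1 : F) • (1 : M4 F)).rank = 4 ∧ (t - ω • (1 : M4 F)).rank = 2 ∧
        (t - ω ^ 2 • (1 : M4 F)).rank = 2 ∧ t.trace = -2) := by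
  obtain ⟨h3, h0, h21, h2ω, h3F⟩ := omega_facts ω hω h1
  obtain ⟨P, τ, hP, hcard, hsum⟩ := cube_model ω hω h1 t ht
  obtain ⟨D, hD⟩ : ∃ D : M4 F, D = Matrix.diagonal (fun i => zeta3 ω (τ i)) := ⟨_, rfl⟩
  rw [← hD] at hP
  have htr1 : t.trace = ∑ j, (Fintype.card {i // τ i = j} : F) * zeta3 ω j := by
    rw [trace_conj_eq P D t hP, hD, Matrix.trace_diagonal, sum_fibre τ (zeta3 ω)]
  have hP2 : (P : M4 F) * (D * D) = (t * t) * (P : M4 F) := by
    rw [← mul_assoc, hP, mul_assoc, hP, mul_assoc]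
  have htr2 : (t * t).trace = ∑ j, (Fintype.card {i // τ i = j} : F) * (zeta3 ω j) ^ 2 := by
    rw [trace_conj_eq P (D * D) (t * t) hP2, hD, Matrix.diagonal_mul_diagonal,
      Matrix.trace_diagonal, ← sum_fibre τ (fun j => zeta3 ω j ^ 2)]
    exact Finset.sum_congr rfl (fun i _ => by rw [pow_two])
  have hc : cstar (sigmaQ hF) t = t * t := by
    have h4 : t * (t * t) = 1 := by
      rw [← ht, pow_succ, pow_two, mul_assoc]
    calc cstar (sigmaQ hF) t = cstar (sigmaQ hF) t * (t * (t * t)) := by rw [h4, mul_one]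
      _ = t * t := by rw [← mul_assoc, hu, one_mul]
  have htr3 : (cstar (sigmaQ hF) t).trace = sigmaQ hF t.trace := by
    simp [Matrix.trace, cstar_apply, map_sum]
  have hσω : sigmaQ hF ω = ω := by rw [sigmaQ_apply, hωp]
  have hσζ : ∀ j, sigmaQ hF (zeta3 ω j) = zeta3 ω j := by
    intro j
    fin_cases j
    · show sigmaQ hF (1 : F) = 1
      exact map_one _
    · show sigmaQ hF ω = ω
      exact hσω
    · show sigmaQ hF (ω ^ 2) = ω ^ 2
      rw [map_pow, hσω]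
  have htr4 : sigmaQ hF t.trace = t.trace := by
    rw [htr1, map_sum]
    refine Finset.sum_congr rfl (fun j _ => ?_)
    rw [map_mul, map_natCast, hσζ]
  have hkey : (t * t).trace = t.trace := by rw [← hc, htr3, htr4]
  rw [htr1, htr2, Fin.sum_univ_three, Fin.sum_univ_three] at hkey
  rw [Fin.sum_univ_three] at htr1 hsum
  have hc0 := hcard 0
  have hc1 := hcard 1
  have hc2 := hcard 2
  obtain ⟨n0, hn0⟩ : ∃ n0, n0 = Fintype.card {i // τ i = (0 : Fin 3)} := ⟨_, rfl⟩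
  obtain ⟨n1, hn1⟩ : ∃ n1, n1 = Fintype.card {i // τ i = (1 : Fin 3)} := ⟨_, rfl⟩
  obtain ⟨n2, hn2⟩ : ∃ n2, n2 = Fintype.card {i // τ i = (2 : Fin 3)} := ⟨_, rfl⟩
  rw [← hn0, ← hn1, ← hn2] at hkey htr1 hsum
  rw [← hn0] at hc0
  rw [← hn1] at hc1
  rw [← hn2] at hc2
  have hkey' : (n0 : F) * 1 ^ 2 + (n1 : F) * ω ^ 2 + (n2 : F) * (ω ^ 2) ^ 2 =
      (n0 : F) * 1 + (n1 : F) * ω + (n2 : F) * ω ^ 2 := hkey
  have htr1' : t.trace = (n0 : F) * 1 + (n1 : F) * ω + (n2 : F) * ω ^ 2 := htr1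
  have hc0' : n0 + (t - (1 : F) • (1 : M4 F)).rank = 4 := hc0
  have hc1' : n1 + (t - ω • (1 : M4 F)).rank = 4 := hc1
  have hc2' : n2 + (t - ω ^ 2 • (1 : M4 F)).rank = 4 := hc2
  have heqF : (n1 : F) = (n2 : F) := by
    have h4 : ((n1 : F) - n2) * (ω ^ 2 - ω) = 0 := by
      linear_combination hkey' - (n2 : F) * ω * h3
    rcases mul_eq_zero.mp h4 with h | h
    · exact sub_eq_zero.mp h
    · exact absurd (sub_eq_zero.mp h) h2ω
  have heq : n1 = n2 := by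
    rcases le_total n1 n2 with h | h
    · exact nat_eq_of_cast_eq h2 h3F n1 n2 h (by omega) heqF
    · exact (nat_eq_of_cast_eq h2 h3F n2 n1 h (by omega) heqF.symm).symm
  have hcases : (n0 = 4 ∧ n1 = 0 ∧ n2 = 0) ∨ (n0 = 2 ∧ n1 = 1 ∧ n2 = 1) ∨
      (n0 = 0 ∧ n1 = 2 ∧ n2 = 2) := by omega
  rcases hcases with ⟨e0, e1, e2⟩ | ⟨e0, e1, e2⟩ | ⟨e0, e1, e2⟩
  · left
    refine ⟨by omega, by omega, by omega, ?_⟩
    rw [htr1', e0, e1, e2]; push_cast; ring
  · right; left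
    refine ⟨by omega, by omega, by omega, ?_⟩
    rw [htr1', e0, e1, e2]; push_cast; linear_combination hω
  · right; right
    refine ⟨by omega, by omega, by omega, ?_⟩
    rw [htr1', e0, e1, e2]; push_cast; linear_combination 2 * hω

end Cfsg.Agent.Lib.Helper74.U64
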