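import Mathlib
import Cfsg.Agent.Lib.Helper60.U64.Defs
import Cfsg.Agent.Lib.Helper40.UnitaryWall

/-!
# U64 (S6001), package [DGU]: diagonal matrices with entries of norm one are unitary
-/

set_option autoImplicit false

namespace Cfsg.Agent.Lib.Helper74.U64

open Matrix Cfsg.Agent.Lib.Helper60.U64 Cfsg.Agent.Lib.Helper40.UnitaryWall Cfsg.Agent.Lib.Helper45

universe u

theorem cstar_diagonal {F : Type u} [Field F] [Fintype F] {p : ℕ} (hF : Fintype.card F = p ^ 2)
    (d : Fin 4 → F) :
    cstar (sigmaQ hF) (Matrix.diagonal d) = Matrix.diagonal (fun j => d j ^ p) := by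
  ext a b
  rw [cstar_apply, Matrix.diagonal_apply, Matrix.diagonal_apply]
  by_cases h : a = b
  · subst h; simp [sigmaQ_apply]
  · simp [h, Ne.symm h]

/-- a diagonal matrix with entries of norm one is unitary (matrix form) -/
theorem diag_mem_GU {F : Type u} [Field F] [Fintype F] {p : ℕ} (hF : Fintype.card F = p ^ 2)
    (d : Fin 4 → F) (hd : ∀ j, d j ^ (p + 1) = 1) (y : GL (Fin 4) F)
    (hy : (y : M4 F) = Matrix.diagonal d) : y ∈ Cfsg.GU 4 F p := by
  rw [mem_GU_iff_cstar hF, hy, cstar_diagonal hF, Matrix.diagonal_mul_diagonal,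
    ← Matrix.diagonal_one]
  congr 1
  funext j
  rw [← pow_succ]
  exact hd j

/-- [DGU] -/
theorem pkgDGU : PkgDGU.{u} := by
  intro F _ _ p hF _ d hd y hy
  exact diag_mem_GU hF d hd y hy

end Cfsg.Agent.Lib.Helper74.U64
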