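import Mathlib
import Cfsg.Agent.Lib.Helper60.U64.Defs
import Cfsg.Agent.Lib.Helper40.UnitaryWall
import Cfsg.Agent.Lib.Helper40.Diag
import Cfsg.Agent.Lib.Helper74.U64.DGU

/-!
# U64 (S6001), package [P2]: elements with scalar square are `Good`
-/

set_option autoImplicit false

namespace Cfsg.Agent.Lib.Helper74.U64

open Matrix Polynomial Cfsg.Agent.Lib.Helper60.U64 Cfsg.Agent.Lib.Helper40.UnitaryWall
  Cfsg.Agent.Lib.Helper45 Cfsg.Agent.Lib.Helper40.Diag

universe u

section basics

variable {F : Type u} [Field F]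

theorem mat_eq_zero_of_rank_eq_zero {n : ℕ} (A : Matrix (Fin n) (Fin n) F) (h : A.rank = 0) :
    A = 0 := by
  rw [Matrix.rank] at h
  have h1 : LinearMap.range A.mulVecLin = ⊥ := Submodule.finrank_eq_zero.mp h
  have h2 : A.mulVecLin = 0 := LinearMap.range_eq_bot.mp h1
  ext a b
  have h3 := congrArg (fun f => f (Pi.single b 1) a) h2
  simpa using h3

/-- the diagonal element of `GL_4` -/
noncomputable def diagGL (d : Fin 4 → F) (hd : ∀ j, d j ≠ 0) : GL (Fin 4) F :=
  ⟨Matrix.diagonal d, Matrix.diagonal (fun j => (d j)⁻¹),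
    by
      rw [Matrix.diagonal_mul_diagonal, ← Matrix.diagonal_one]
      congr 1; funext j; exact mul_inv_cancel₀ (hd j),
    by
      rw [Matrix.diagonal_mul_diagonal, ← Matrix.diagonal_one]
      congr 1; funext j; exact inv_mul_cancel₀ (hd j)⟩

theorem diagGL_coe (d : Fin 4 → F) (hd : ∀ j, d j ≠ 0) :
    ((diagGL d hd : GL (Fin 4) F) : M4 F) = Matrix.diagonal d := rfl

theorem diagGL_comm (d e : Fin 4 → F) (hd : ∀ j, d j ≠ 0) (he : ∀ j, e j ≠ 0) :
    diagGL d hd * diagGL e he = diagGL e he * diagGL d hd := by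
  apply Units.ext
  show Matrix.diagonal d * Matrix.diagonal e = Matrix.diagonal e * Matrix.diagonal d
  rw [Matrix.diagonal_mul_diagonal, Matrix.diagonal_mul_diagonal]
  congr 1; funext j; exact mul_comm _ _

theorem scalar_mem_normalizer (H : Subgroup (GL (Fin 4) F)) (c : GL (Fin 4) F) (s : F)
    (hc : (c : M4 F) = s • (1 : M4 F)) :
    c ∈ Subgroup.normalizer (H : Set (GL (Fin 4) F)) := by
  rw [Subgroup.mem_normalizer_iff]
  intro n
  have h0 : c * n * c⁻¹ = n := by
    have h1 : c * n = n * c := by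
      apply Units.ext
      show (c : M4 F) * (n : M4 F) = (n : M4 F) * (c : M4 F)
      rw [hc]; simp
    rw [h1, mul_inv_cancel_right]
  rw [h0]

theorem diag_poly [DecidableEq F] (d : Fin 4 → F) (s : F) (hne : s ≠ -s)
    (hd : ∀ j, d j = s ∨ d j = -s) :
    aeval (Matrix.diagonal d : M4 F) (∏ ζ ∈ ({s, -s} : Finset F), (X - C ζ)) = 0 := by
  rw [Finset.prod_pair hne]
  simp only [map_mul, map_sub, aeval_X, aeval_C, Algebra.algebraMap_eq_smul_one]
  rw [Matrix.smul_one_eq_diagonal, Matrix.smul_one_eq_diagonal, Matrix.diagonal_sub,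
    Matrix.diagonal_sub, Matrix.diagonal_mul_diagonal, ← Matrix.diagonal_zero]
  congr 1; funext j
  rcases hd j with h | h <;> simp [h]

end basics

theorem p2_finish {F : Type u} [Field F] [Fintype F] [DecidableEq F] (p : ℕ) (i : F)
    (hF : Fintype.card F = p ^ 2) (hpe : Even (p + 1))
    (x : GL (Fin 4) F) (s : F) (hne : s ≠ -s) (hs0 : s ≠ 0)
    (hxpoly : aeval (x : M4 F) (∏ ζ ∈ ({s, -s} : Finset F), (X - C ζ)) = 0)
    (d : Fin 4 → F) (hd : ∀ j, d j = s ∨ d j = -s)
    (hr1 : (Matrix.diagonal d - s • (1 : M4 F)).rank = ((x : M4 F) - s • 1).rank)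
    (hr2 : (Matrix.diagonal d - (-s) • (1 : M4 F)).rank = ((x : M4 F) - (-s) • 1).rank)
    (hnorm : (∃ k : GL (Fin 4) F, (k : M4 F) * Matrix.diagonal d = (x : M4 F) * (k : M4 F)) →
      s ^ (p + 1) = 1)
    (hN : ∀ y : GL (Fin 4) F, (y : M4 F) = Matrix.diagonal d →
      y ∈ Subgroup.normalizer ((R0 i : Subgroup (GL (Fin 4) F)) : Set (GL (Fin 4) F))) :
    Good p i x := by
  obtain ⟨k, hk⟩ := similar_of_rank_eq (Matrix.diagonal d) (x : M4 F) {s, -s}
    (diag_poly d s hne hd) hxpoly (by
      intro ζ hζ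
      simp only [Finset.mem_insert, Finset.mem_singleton] at hζ
      rcases hζ with h | h
      · rw [h]; exact hr1
      · rw [h]; exact hr2)
  have hsN : s ^ (p + 1) = 1 := hnorm ⟨k, hk⟩
  have hd0 : ∀ j, d j ≠ 0 := by
    intro j
    rcases hd j with h | h <;> rw [h]
    · exact hs0
    · exact neg_ne_zero.mpr hs0
  have hdN : ∀ j, d j ^ (p + 1) = 1 := by
    intro j
    rcases hd j with h | h <;> rw [h]
    · exact hsN
    · rw [Even.neg_pow hpe, hsN]
  refine ⟨diagGL d hd0, diag_mem_GU hF d hdN _ rfl, hN _ rfl, ⟨k, ?_⟩, ?_⟩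
  · apply Units.ext
    show (x : M4 F) * (k : M4 F) = (k : M4 F) * Matrix.diagonal d
    exact hk.symm
  · intro δ hδ
    have hδ0 : δ ≠ 0 := by
      intro h
      rw [h, zero_pow (by omega)] at hδ
      exact zero_ne_one hδ
    have he0 : ∀ j, (![δ, 1, 1, 1] : Fin 4 → F) j ≠ 0 := by
      intro j; fin_cases j <;> simp [hδ0]
    refine ⟨diagGL ![δ, 1, 1, 1] he0, diag_mem_GU hF _ ?_ _ rfl, diagGL_comm _ _ _ _, ?_⟩
    · intro j; fin_cases j <;> simp [hδ]
    · show (Matrix.diagonal ![δ, 1, 1, 1]).det = δ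
      rw [Matrix.det_diagonal, Fin.prod_univ_four]; simp

/-- [P2] -/
theorem pkgP2_of (hND : PkgND.{u}) : PkgP2.{u} := by
  intro F _ _ p i hF hp hp4 hi x hxGU hdet ⟨z, hz⟩ hns
  classical
  have hchar : ringChar F ≠ 2 := by
    intro h
    rw [FiniteField.even_card_iff_char_two, hF, Nat.pow_mod] at h
    have h1 : p % 2 = 1 := by omega
    rw [h1] at h; norm_num at h
  have h2 : (2 : F) ≠ 0 := Ring.two_ne_zero hchar
  have hz4 : z ^ 4 = 1 := by
    have h1 := congrArg Matrix.det hz
    rw [Matrix.det_mul, hdet, Matrix.det_smul, Matrix.det_one] at h1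
    simpa using h1.symm
  have hz0 : z ≠ 0 := by intro h; rw [h] at hz4; norm_num at hz4
  obtain ⟨s₀, hs₀⟩ : ∃ s₀ : F, s₀ * s₀ = z := by
    have hsq : IsSquare z := by
      rw [FiniteField.isSquare_iff hchar hz0, hF]
      obtain ⟨m, hm⟩ : ∃ m, p = 4 * m + 3 := ⟨p / 4, by omega⟩
      have e : p ^ 2 / 2 = 4 * (2 * m ^ 2 + 3 * m + 1) := by
        have h1 : p ^ 2 = 2 * (4 * (2 * m ^ 2 + 3 * m + 1)) + 1 := by rw [hm]; ring
        omega
      rw [e, pow_mul, hz4, one_pow]
    obtain ⟨r, hr⟩ := hsq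
    exact ⟨r, hr.symm⟩
  have hpe : Even (p + 1) := ⟨(p + 1) / 2, by omega⟩
  have key : ∀ s : F, s * s = z →
      ((x : M4 F) - s • 1).rank ≤ ((x : M4 F) - (-s) • 1).rank → Good p i x := by
    intro s hs hle
    have hs0 : s ≠ 0 := by
      intro h
      rw [h, mul_zero] at hs
      exact hz0 hs.symm
    have hne : s ≠ -s := by
      intro h
      have h1 : (2 : F) * s = 0 := by linear_combination h
      rcases mul_eq_zero.mp h1 with h' | h'
      · exact h2 h'
      · exact hs0 h'
    have hxpoly : aeval (x : M4 F) (∏ ζ ∈ ({s, -s} : Finset F), (X - C ζ)) = 0 := by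
      rw [Finset.prod_pair hne]
      simp only [map_mul, map_sub, aeval_X, aeval_C, Algebra.algebraMap_eq_smul_one]
      have h1 : ((x : M4 F) - s • 1) * ((x : M4 F) - (-s) • 1) =
          (x : M4 F) * (x : M4 F) - (s * s) • 1 := by
        simp only [sub_mul, mul_sub, Matrix.mul_smul, Matrix.smul_mul, mul_one, one_mul, smul_smul,
          neg_smul, mul_neg]
        abel
      rw [h1, hz, hs, sub_self]
    have hsum := sum_sub_rank (x : M4 F) {s, -s} hxpoly
    rw [Finset.sum_pair hne] at hsum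
    have hr1le := Matrix.rank_le_width ((x : M4 F) - s • 1)
    have hr2le := Matrix.rank_le_width ((x : M4 F) - (-s) • 1)
    have hr1 : ((x : M4 F) - s • 1).rank ≠ 0 :=
      fun h => hns s (sub_eq_zero.mp (mat_eq_zero_of_rank_eq_zero _ h))
    have hr2 : ((x : M4 F) - (-s) • 1).rank ≠ 0 :=
      fun h => hns (-s) (sub_eq_zero.mp (mat_eq_zero_of_rank_eq_zero _ h))
    have hcases : (((x : M4 F) - s • 1).rank = 2 ∧ ((x : M4 F) - (-s) • 1).rank = 2) ∨
        (((x : M4 F) - s • 1).rank = 1 ∧ ((x : M4 F) - (-s) • 1).rank = 3) := by omega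
    have hc0 : ∀ j : Fin 4, (fun _ : Fin 4 => s) j ≠ 0 := fun _ => hs0
    rcases hcases with ⟨e1, e2⟩ | ⟨e1, e2⟩
    · refine p2_finish p i hF hpe x s hne hs0 hxpoly ![s, s, -s, -s] ?_ ?_ ?_ ?_ ?_
      · intro j; fin_cases j <;> simp
      · rw [e1]
        have h1 := rank_diagonal_sub (![s, s, -s, -s] : Fin 4 → F) (s)
        obtain ⟨r, hr⟩ : ∃ r, r = (Matrix.diagonal (![s, s, -s, -s] : Fin 4 → F) - (s) • (1 : M4 F)).rank :=
          ⟨_, rfl⟩
        rw [← hr] at h1 ⊢
        rw [Fintype.card_subtype, Finset.card_filter, Fin.sum_univ_four] at h1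
        simp [hne.symm] at h1
        omega
      · rw [e2]
        have h1 := rank_diagonal_sub (![s, s, -s, -s] : Fin 4 → F) (-s)
        obtain ⟨r, hr⟩ : ∃ r, r = (Matrix.diagonal (![s, s, -s, -s] : Fin 4 → F) - (-s) • (1 : M4 F)).rank :=
          ⟨_, rfl⟩
        rw [← hr] at h1 ⊢
        rw [Fintype.card_subtype, Finset.card_filter, Fin.sum_univ_four] at h1
        simp [hne] at h1
        omega
      · rintro ⟨k, hk⟩
        have h1 := congrArg Matrix.det hk
        rw [Matrix.det_mul, Matrix.det_mul, hdet, Matrix.det_diagonal, Fin.prod_univ_four] at h1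
        have hk0 : (k : M4 F).det ≠ 0 :=
          ((Matrix.isUnit_iff_isUnit_det _).mp (Units.isUnit k)).ne_zero
        have h4 : s ^ 4 = 1 := by
          have h3 : (k : M4 F).det * (s ^ 4 - 1) = 0 := by
            simp at h1
            linear_combination h1
          rcases mul_eq_zero.mp h3 with h | h
          · exact absurd h hk0
          · exact sub_eq_zero.mp h
        obtain ⟨m, hm⟩ : ∃ m, p + 1 = 4 * m := ⟨(p + 1) / 4, by omega⟩
        rw [hm, pow_mul, h4, one_pow]
      · intro y hy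
        have ha0 : ∀ j, (![1, 1, -1, -1] : Fin 4 → F) j ≠ 0 := by
          intro j; fin_cases j <;> simp
        have hyeq : y = diagGL (fun _ => s) hc0 * diagGL ![1, 1, -1, -1] ha0 := by
          apply Units.ext
          rw [hy]
          show _ = Matrix.diagonal _ * Matrix.diagonal _
          rw [Matrix.diagonal_mul_diagonal]
          congr 1; funext j; fin_cases j <;> simp
        rw [hyeq]
        refine Subgroup.mul_mem _ (scalar_mem_normalizer _ _ s ?_)
          (Subgroup.le_normalizer (Subgroup.subset_closure ?_))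
        · show Matrix.diagonal (fun _ => s) = s • (1 : M4 F)
          rw [Matrix.smul_one_eq_diagonal]
        · right; left
          show Matrix.diagonal ![1, 1, -1, -1] = mA1 F
          ext a b; fin_cases a <;> fin_cases b <;> simp [mA1]
    · refine p2_finish p i hF hpe x s hne hs0 hxpoly ![s, s, s, -s] ?_ ?_ ?_ ?_ ?_
      · intro j; fin_cases j <;> simp
      · rw [e1]
        have h1 := rank_diagonal_sub (![s, s, s, -s] : Fin 4 → F) (s)
        obtain ⟨r, hr⟩ : ∃ r, r = (Matrix.diagonal (![s, s, s, -s] : Fin 4 → F) - (s) • (1 : M4 F)).rank :=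
          ⟨_, rfl⟩
        rw [← hr] at h1 ⊢
        rw [Fintype.card_subtype, Finset.card_filter, Fin.sum_univ_four] at h1
        simp [hne.symm] at h1
        omega
      · rw [e2]
        have h1 := rank_diagonal_sub (![s, s, s, -s] : Fin 4 → F) (-s)
        obtain ⟨r, hr⟩ : ∃ r, r = (Matrix.diagonal (![s, s, s, -s] : Fin 4 → F) - (-s) • (1 : M4 F)).rank :=
          ⟨_, rfl⟩
        rw [← hr] at h1 ⊢
        rw [Fintype.card_subtype, Finset.card_filter, Fin.sum_univ_four] at h1
        simp [hne] at h1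
        omega
      · rintro ⟨k, hk⟩
        have hxk : (x : M4 F) = (k : M4 F) * Matrix.diagonal ![s, s, s, -s] *
            ((k⁻¹ : GL (Fin 4) F) : M4 F) := by
          rw [hk, Units.mul_inv_cancel_right]
        have htr : (x : M4 F).trace = 2 * s := by
          rw [hxk, Matrix.trace_mul_comm, Units.inv_mul_cancel_left, Matrix.trace_diagonal,
            Fin.sum_univ_four]
          simp; ring
        have hg := (mem_GU_iff_cstar hF x).mp hxGU
        have hinv : (x : M4 F) * (z⁻¹ • (x : M4 F)) = 1 := by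
          rw [Matrix.mul_smul, hz, smul_smul, inv_mul_cancel₀ hz0, one_smul]
        have hc : cstar (sigmaQ hF) (x : M4 F) = z⁻¹ • (x : M4 F) := by
          calc cstar (sigmaQ hF) (x : M4 F)
              = cstar (sigmaQ hF) (x : M4 F) * ((x : M4 F) * (z⁻¹ • (x : M4 F))) := by
                rw [hinv, mul_one]
            _ = z⁻¹ • (x : M4 F) := by rw [← mul_assoc, hg, one_mul]
        have htr2 : (cstar (sigmaQ hF) (x : M4 F)).trace = sigmaQ hF ((x : M4 F).trace) := by
          simp [Matrix.trace, cstar_apply, map_sum]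
        rw [hc, Matrix.trace_smul, htr, map_mul, map_ofNat, sigmaQ_apply, smul_eq_mul] at htr2
        have h5 : s ^ p = s⁻¹ := by
          have h3 : (2 : F) * (s ^ p - z⁻¹ * s) = 0 := by linear_combination -htr2
          have h4 : s ^ p = z⁻¹ * s := by
            rcases mul_eq_zero.mp h3 with h | h
            · exact absurd h h2
            · exact sub_eq_zero.mp h
          rw [h4, ← hs]; field_simp
        rw [pow_succ, h5, inv_mul_cancel₀ hs0]
      · intro y hy
        have ha0 : ∀ j, (![1, 1, 1, -1] : Fin 4 → F) j ≠ 0 := by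
          intro j; fin_cases j <;> simp
        have hyeq : y = diagGL (fun _ => s) hc0 * diagGL ![1, 1, 1, -1] ha0 := by
          apply Units.ext
          rw [hy]
          show _ = Matrix.diagonal _ * Matrix.diagonal _
          rw [Matrix.diagonal_mul_diagonal]
          congr 1; funext j; fin_cases j <;> simp
        rw [hyeq]
        refine Subgroup.mul_mem _ (scalar_mem_normalizer _ _ s ?_) (hND F i hi h2 _ ?_)
        · show Matrix.diagonal (fun _ => s) = s • (1 : M4 F)
          rw [Matrix.smul_one_eq_diagonal]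
        · show Matrix.diagonal ![1, 1, 1, -1] = mD F
          ext a b; fin_cases a <;> fin_cases b <;> simp [mD]
  rcases le_total ((x : M4 F) - s₀ • 1).rank ((x : M4 F) - (-s₀) • 1).rank with h | h
  · exact key s₀ hs₀ h
  · refine key (-s₀) (by rw [neg_mul_neg]; exact hs₀) ?_
    rw [neg_neg]; exact h

end Cfsg.Agent.Lib.Helper74.U64
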