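import Mathlib
import Cfsg.Agent.Lib.Helper60.U64.Defs
import Cfsg.Agent.Lib.Helper40.UnitaryWall
import Cfsg.Agent.Lib.Helper40.Diag
import Cfsg.Agent.Lib.Helper74.U64.P2
import Cfsg.Agent.Lib.Helper74.U64.CubeType

/-!
# U64 (S6001), package [P3]: elements with scalar cube are `Good` (`p ≡ 1 mod 3`)
-/

set_option autoImplicit false

namespace Cfsg.Agent.Lib.Helper74.U64

open Matrix Polynomial Cfsg.Agent.Lib.Helper60.U64 Cfsg.Agent.Lib.Helper40.UnitaryWall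
  Cfsg.Agent.Lib.Helper45 Cfsg.Agent.Lib.Helper40.Diag

universe u

section mats

variable {F : Type u} [Field F]

/-- a centralizing matrix of `mU2 i` with determinant `δ` -/
def cent2 (δ : F) : M4 F :=
  !![1, 0, 0, 0; 0, (1 + δ) / 2, (1 - δ) / 2, 0; 0, (1 - δ) / 2, (1 + δ) / 2, 0; 0, 0, 0, 1]

theorem cent2_comm (h2 : (2 : F) ≠ 0) (i δ : F) : cent2 δ * mU2 i = mU2 i * cent2 δ := by
  ext r s
  fin_cases r <;> fin_cases s <;>
    simp [cent2, mU2, Matrix.mul_apply, Fin.sum_univ_four] <;> field_simp <;> ring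

theorem cent2_det (h2 : (2 : F) ≠ 0) (δ : F) : (cent2 δ).det = δ := by
  rw [Matrix.det_succ_row_zero]
  simp [Fin.sum_univ_four, Matrix.det_fin_three, cent2, Fin.succAbove, Matrix.submatrix]
  field_simp
  ring

/-- a centralizing matrix of `mU0 i` -/
def cent0 (i a c : F) : M4 F :=
  !![a + c * (-1 - i), c * (-1 - i), 0, 0; c * (1 - i), a + c * (-1 + i), 0, 0;
    0, 0, 1, 0; 0, 0, 0, 1]

theorem cent0_comm (i a c : F) : cent0 i a c * mU0 i = mU0 i * cent0 i a c := by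
  ext r s
  fin_cases r <;> fin_cases s <;>
    simp [cent0, mU0, Matrix.mul_apply, Fin.sum_univ_four] <;> ring

theorem cent0_det (i a c : F) (hi : i * i = -1) :
    (cent0 i a c).det = a ^ 2 - 2 * a * c + 4 * c ^ 2 := by
  rw [Matrix.det_succ_row_zero]
  simp [Fin.sum_univ_four, Matrix.det_fin_three, cent0, Fin.succAbove, Matrix.submatrix]
  linear_combination (-2 * c ^ 2) * hi

/-- the element of `GL_4` with a given left inverse -/
def unitGL (M N : M4 F) (h : N * M = 1) : GL (Fin 4) F :=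
  ⟨M, N, mul_eq_one_comm.mp h, h⟩

/-- the element of `GL_4` given by a matrix with cube one -/
def cubeGL (U : M4 F) (h : U ^ 3 = 1) : GL (Fin 4) F :=
  ⟨U, U ^ 2, by rw [← pow_succ']; exact h, by rw [← pow_succ]; exact h⟩

end mats

section fin

variable {F : Type u} [Field F] [Fintype F] {p : ℕ}

theorem cent2_unitary (hF : Fintype.card F = p ^ 2) (h2 : (2 : F) ≠ 0) (δ : F)
    (hδ : δ ^ (p + 1) = 1) : cstar (sigmaQ hF) (cent2 δ) * cent2 δ = 1 := by
  have hδ0 : δ ≠ 0 := by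
    intro h
    rw [h, zero_pow (by omega)] at hδ
    exact zero_ne_one hδ
  have hσδ : sigmaQ hF δ = δ⁻¹ := by
    rw [sigmaQ_apply]
    exact eq_inv_of_mul_eq_one_left (by rw [← pow_succ]; exact hδ)
  have hσ2 : sigmaQ hF (2 : F) = 2 := map_ofNat _ 2
  ext r s
  fin_cases r <;> fin_cases s <;>
    simp [cstar_apply, Matrix.mul_apply, Fin.sum_univ_four, cent2, hσδ, hσ2] <;>
    field_simp <;> ring

theorem cent0_unitary (hF : Fintype.card F = p ^ 2) (i a c a' c' : F) (hi : i * i = -1)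
    (hσi : sigmaQ hF i = -i) (hσa : sigmaQ hF a = a') (hσc : sigmaQ hF c = c')
    (h1 : a' * a - 2 * c' * a + 4 * c' * c = 1) (h2 : a' * c = c' * a) :
    cstar (sigmaQ hF) (cent0 i a c) * cent0 i a c = 1 := by
  ext r s
  fin_cases r <;> fin_cases s <;>
    simp [cstar_apply, Matrix.mul_apply, Fin.sum_univ_four, cent0, hσi, hσa, hσc] <;>
    first
    | linear_combination h1 + (-1 - i) * h2 - (2 * c' * c) * hi
    | linear_combination (-1 - i) * h2
    | linear_combination (1 - i) * h2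
    | linear_combination h1 + (-1 + i) * h2 - (2 * c' * c) * hi

theorem exists_omega (hF : Fintype.card F = p ^ 2) (hp3 : p % 3 = 1) :
    ∃ ω : F, ω * ω + ω + 1 = 0 ∧ ω ≠ 1 ∧ ω ^ p = ω := by
  classical
  haveI : Fact (Nat.Prime 3) := ⟨Nat.prime_three⟩
  obtain ⟨m, hm⟩ : ∃ m, p = 3 * m + 1 := ⟨p / 3, by omega⟩
  have hdvd : 3 ∣ Nat.card Fˣ := by
    rw [Nat.card_units, Nat.card_eq_fintype_card, hF, hm]
    exact ⟨3 * m ^ 2 + 2 * m, by
      have h1 : (3 * m + 1) ^ 2 = 3 * (3 * m ^ 2 + 2 * m) + 1 := by ring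
      omega⟩
  obtain ⟨w, hw⟩ := exists_prime_orderOf_dvd_card' 3 hdvd
  have hw3 : (w : F) ^ 3 = 1 := by
    have h1 : w ^ 3 = 1 := by rw [← hw]; exact pow_orderOf_eq_one w
    have h2 := congrArg Units.val h1
    simpa using h2
  have hw1 : (w : F) ≠ 1 := by
    intro h
    have h1 : w = 1 := Units.ext h
    rw [h1, orderOf_one] at hw
    norm_num at hw
  refine ⟨w, ?_, hw1, ?_⟩
  · have h1 : ((w : F) - 1) * ((w : F) * w + w + 1) = 0 := by linear_combination hw3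
    rcases mul_eq_zero.mp h1 with h | h
    · exact absurd (sub_eq_zero.mp h) hw1
    · exact h
  · rw [hm, pow_succ, pow_mul, hw3, one_pow, one_mul]

theorem exists_h90 (hF : Fintype.card F = p ^ 2) (i : F) (hi : i * i = -1) (hip : i ^ p = -i)
    (δ : F) (hδ : δ ^ (p + 1) = 1) : ∃ α : F, α ≠ 0 ∧ α ^ p * δ = α := by
  by_cases h : δ = -1
  · refine ⟨i, ?_, ?_⟩
    · intro h0
      rw [h0, mul_zero] at hi
      exact absurd hi.symm (by simp)
    · rw [hip, h]; ring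
  · refine ⟨1 + δ, ?_, ?_⟩
    · intro h0
      exact h (by linear_combination h0)
    · have h1 : sigmaQ hF (1 + δ) = 1 + sigmaQ hF δ := by rw [map_add, map_one]
      rw [sigmaQ_apply, sigmaQ_apply] at h1
      rw [h1]
      have h2 : δ ^ p * δ = 1 := by rw [← pow_succ]; exact hδ
      linear_combination h2

theorem exists_cent0 (hF : Fintype.card F = p ^ 2) (h2 : (2 : F) ≠ 0) (i : F) (hi : i * i = -1)
    (hip : i ^ p = -i) (ω : F) (hω : ω * ω + ω + 1 = 0) (h1ω : ω ≠ 1) (hωp : ω ^ p = ω)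
    (δ : F) (hδ : δ ^ (p + 1) = 1) :
    ∃ a c : F, a ^ 2 - 2 * a * c + 4 * c ^ 2 = δ ∧
      cstar (sigmaQ hF) (cent0 i a c) * cent0 i a c = 1 := by
  obtain ⟨h3, h0, h21, h2ω, h3F⟩ := omega_facts ω hω h1ω
  have hδ0 : δ ≠ 0 := by
    intro h
    rw [h, zero_pow (by omega)] at hδ
    exact zero_ne_one hδ
  obtain ⟨α₀, hα₀, hα₀p⟩ := exists_h90 hF i hi hip δ hδ
  have sα₀ : sigmaQ hF α₀ * δ = α₀ := by rw [sigmaQ_apply]; exact hα₀p
  have sδ : sigmaQ hF δ * δ = 1 := by rw [sigmaQ_apply, ← pow_succ]; exact hδ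
  have sω : sigmaQ hF ω = ω := by rw [sigmaQ_apply, hωp]
  obtain ⟨w, hw⟩ : ∃ w : F, w = 2 * ω + 1 := ⟨_, rfl⟩
  have hw0 : w ≠ 0 := by
    intro h
    apply h2ω
    rw [hw] at h
    linear_combination -h + hω
  have sw : sigmaQ hF w = w := by
    rw [hw, map_add, map_mul, map_ofNat, map_one, sω]
  obtain ⟨α, hα⟩ : ∃ α : F, α * α₀ = δ := ⟨δ / α₀, by field_simp⟩
  obtain ⟨c, hc⟩ : ∃ c : F, 2 * c * w = α - α₀ := ⟨(α - α₀) / (2 * w), by field_simp⟩
  obtain ⟨a, ha⟩ : ∃ a : F, a = α - 2 * c * ω := ⟨_, rfl⟩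
  have hσα : sigmaQ hF α * δ = α := by
    have h := congrArg (sigmaQ hF) hα
    rw [map_mul] at h
    apply mul_right_cancel₀ hα₀
    linear_combination δ * sδ + δ ^ 2 * h - (sigmaQ hF α * δ) * sα₀ - hα
  have hσc : sigmaQ hF c * δ = c := by
    have h := congrArg (sigmaQ hF) hc
    rw [map_mul, map_mul, map_sub, map_ofNat, sw] at h
    apply mul_right_cancel₀ (mul_ne_zero h2 hw0)
    linear_combination δ * h + hσα - sα₀ - hc
  have hσa : sigmaQ hF a * δ = a := by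
    rw [ha, map_sub, map_mul, map_mul, map_ofNat, sω]
    linear_combination hσα - (2 * ω) * hσc
  have hdet : a ^ 2 - 2 * a * c + 4 * c ^ 2 = δ := by
    rw [ha]
    linear_combination (4 * c ^ 2) * hω - α * hc + (2 * α * c) * hw + hα
  refine ⟨a, c, hdet, ?_⟩
  have hσi : sigmaQ hF i = -i := by rw [sigmaQ_apply, hip]
  refine cent0_unitary hF i a c (sigmaQ hF a) (sigmaQ hF c) hi hσi rfl rfl ?_ ?_
  · apply mul_left_cancel₀ hδ0
    linear_combination a * hσa - 2 * a * hσc + 4 * c * hσc + hdet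
  · apply mul_left_cancel₀ hδ0
    linear_combination c * hσa - a * hσc

end fin

theorem p3_finish {F : Type u} [Field F] [Fintype F] [DecidableEq F] (p : ℕ) (i : F)
    (hF : Fintype.card F = p ^ 2) (ω : F) (hω : ω * ω + ω + 1 = 0) (h1ω : ω ≠ 1)
    (x : GL (Fin 4) F) (z : F) (hz0 : z ≠ 0) (hzN : z ^ (p + 1) = 1)
    (t : M4 F) (htx : (x : M4 F) = z ^ 3 • t) (ht : t ^ 3 = 1)
    (Ug : GL (Fin 4) F) (hU3 : (Ug : M4 F) ^ 3 = 1) (hUGU : Ug ∈ Cfsg.GU 4 F p)
    (hUN : Ug ∈ Subgroup.normalizer ((R0 i : Subgroup (GL (Fin 4) F)) : Set (GL (Fin 4) F)))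
    (hr : ∀ ζ ∈ ({1, ω, ω ^ 2} : Finset F),
      ((Ug : M4 F) - ζ • (1 : M4 F)).rank = (t - ζ • (1 : M4 F)).rank)
    (hcent : ∀ δ : F, δ ^ (p + 1) = 1 → ∃ M : GL (Fin 4) F, M ∈ Cfsg.GU 4 F p ∧
      (M : M4 F) * (Ug : M4 F) = (Ug : M4 F) * (M : M4 F) ∧ (M : M4 F).det = δ) :
    Good p i x := by
  have hpolyU : aeval (Ug : M4 F) (∏ ζ ∈ ({1, ω, ω ^ 2} : Finset F), (X - C ζ)) = 0 := by
    rw [prod_zeta3 ω hω h1ω]; simp [hU3]
  have hpolyt : aeval t (∏ ζ ∈ ({1, ω, ω ^ 2} : Finset F), (X - C ζ)) = 0 := by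
    rw [prod_zeta3 ω hω h1ω]; simp [ht]
  obtain ⟨k, hk⟩ := similar_of_rank_eq (Ug : M4 F) t {1, ω, ω ^ 2} hpolyU hpolyt hr
  have hc0 : ∀ j : Fin 4, (fun _ : Fin 4 => z ^ 3) j ≠ 0 := fun _ => pow_ne_zero 3 hz0
  obtain ⟨c, hc⟩ : ∃ c : GL (Fin 4) F, c = diagGL (fun _ => z ^ 3) hc0 := ⟨_, rfl⟩
  have hcm : (c : M4 F) = z ^ 3 • (1 : M4 F) := by
    rw [hc]
    show Matrix.diagonal (fun _ : Fin 4 => z ^ 3) = _
    rw [Matrix.smul_one_eq_diagonal]
  have hcGU : c ∈ Cfsg.GU 4 F p := by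
    rw [hc]
    refine diag_mem_GU hF _ ?_ _ rfl
    intro j
    show (z ^ 3) ^ (p + 1) = 1
    rw [← pow_mul, mul_comm, pow_mul, hzN, one_pow]
  refine ⟨c * Ug, Subgroup.mul_mem _ hcGU hUGU,
    Subgroup.mul_mem _ (scalar_mem_normalizer _ c (z ^ 3) hcm) hUN, ⟨k, ?_⟩, ?_⟩
  · apply Units.ext
    show (x : M4 F) * (k : M4 F) = (k : M4 F) * ((c : M4 F) * (Ug : M4 F))
    rw [htx, hcm, Matrix.smul_mul, ← hk, Matrix.smul_mul, one_mul, Matrix.mul_smul]
  · intro δ hδ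
    obtain ⟨M, hMGU, hMU, hMdet⟩ := hcent δ hδ
    refine ⟨M, hMGU, ?_, hMdet⟩
    apply Units.ext
    show (M : M4 F) * ((c : M4 F) * (Ug : M4 F)) = (c : M4 F) * (Ug : M4 F) * (M : M4 F)
    rw [hcm, Matrix.smul_mul, one_mul, Matrix.mul_smul, hMU, Matrix.smul_mul]

/-- [P3] -/
theorem pkgP3_of (hNU0 : PkgNU0.{u}) (hNU2 : PkgNU2.{u}) (hGUM : PkgGUM.{u})
    (hExpl : PkgExpl.{u}) : PkgP3.{u} := by
  intro F _ _ p i hF hp hp4 hp3 hi x hxGU hdet ⟨z, hz⟩ hns
  classical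
  have hchar : ringChar F ≠ 2 := by
    intro h
    rw [FiniteField.even_card_iff_char_two, hF, Nat.pow_mod] at h
    have h1 : p % 2 = 1 := by omega
    rw [h1] at h; norm_num at h
  have h2 : (2 : F) ≠ 0 := Ring.two_ne_zero hchar
  obtain ⟨ω, hω, h1ω, hωp⟩ := exists_omega hF hp3
  obtain ⟨h3, h0, h21, h2ω, h3F⟩ := omega_facts ω hω h1ω
  have hip : i ^ p = -i := by
    obtain ⟨m, hm⟩ : ∃ m, p = 4 * m + 3 := ⟨p / 4, by omega⟩
    have hi4 : i ^ 4 = 1 := by linear_combination (i * i - 1) * hi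
    rw [hm, pow_add, pow_mul, hi4, one_pow, one_mul]
    linear_combination i * hi
  have hz4 : z ^ 4 = 1 := by
    have h := congrArg Matrix.det hz
    rw [Matrix.det_pow, hdet, one_pow, Matrix.det_smul, Matrix.det_one] at h
    simpa using h.symm
  have hz0 : z ≠ 0 := by intro h; rw [h] at hz4; norm_num at hz4
  have hzN : z ^ (p + 1) = 1 := by
    obtain ⟨m, hm⟩ : ∃ m, p + 1 = 4 * m := ⟨(p + 1) / 4, by omega⟩
    rw [hm, pow_mul, hz4, one_pow]
  obtain ⟨t, ht⟩ : ∃ t : M4 F, t = z • (x : M4 F) := ⟨_, rfl⟩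
  have ht3 : t ^ 3 = 1 := by
    rw [ht, _root_.smul_pow, hz, smul_smul, ← pow_succ, hz4, one_smul]
  have htx : (x : M4 F) = z ^ 3 • t := by
    rw [ht, smul_smul, ← pow_succ, hz4, one_smul]
  have hxu := (mem_GU_iff_cstar hF x).mp hxGU
  have htu : cstar (sigmaQ hF) t * t = 1 := by
    have hcs : cstar (sigmaQ hF) t = z ^ p • cstar (sigmaQ hF) (x : M4 F) := by
      rw [ht]
      ext a b
      simp [cstar_apply, sigmaQ_apply, mul_pow]
    rw [hcs, ht, Matrix.smul_mul, Matrix.mul_smul, hxu, smul_smul, ← pow_succ, hzN, one_smul]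
  have htype := cube_type hF ω hω h1ω hωp h2 t ht3 htu
  have ht0 : (t - (1 : F) • (1 : M4 F)).rank ≠ 0 := by
    intro h
    have h5 := mat_eq_zero_of_rank_eq_zero _ h
    rw [one_smul, sub_eq_zero] at h5
    exact hns (z ^ 3) (by rw [htx, h5])
  obtain ⟨hU0c, hU2c, -, -, -, -, -⟩ := hExpl F i hi h2
  rcases htype with ⟨e0, -, -, -⟩ | ⟨e0, e1, e2, -⟩ | ⟨e0, e1, e2, -⟩
  · exact absurd e0 ht0
  · -- type (2,1,1): `mU2 i`
    obtain ⟨Ug, hUg⟩ : ∃ Ug : GL (Fin 4) F, Ug = cubeGL (mU2 i) hU2c := ⟨_, rfl⟩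
    have hUm : (Ug : M4 F) = mU2 i := by rw [hUg]; rfl
    have hUGU : Ug ∈ Cfsg.GU 4 F p :=
      hGUM F p i hF hp hp4 hi hip Ug (Or.inr (Or.inr (Or.inl hUm)))
    have hUu := (mem_GU_iff_cstar hF Ug).mp hUGU
    rw [hUm] at hUu
    have hUtype := cube_type hF ω hω h1ω hωp h2 (mU2 i) hU2c hUu
    have hUtr : (mU2 i).trace = 1 := by
      simp [mU2, Matrix.trace, Fin.sum_univ_four]
      field_simp
      ring
    rcases hUtype with ⟨-, -, -, f3⟩ | ⟨f0, f1, f2, -⟩ | ⟨-, -, -, f3⟩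
    · exfalso
      rw [hUtr] at f3
      apply h3F
      linear_combination -f3
    · refine p3_finish p i hF ω hω h1ω x z hz0 hzN t htx ht3 Ug (by rw [hUm]; exact hU2c) hUGU
        (hNU2 F i hi h2 Ug hUm) ?_ ?_
      · intro ζ hζ
        simp only [Finset.mem_insert, Finset.mem_singleton] at hζ
        rw [hUm]
        rcases hζ with h | h | h
        · rw [h, f0, e0]
        · rw [h, f1, e1]
        · rw [h, f2, e2]
      · intro δ hδ
        have hun := cent2_unitary hF h2 δ hδ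
        refine ⟨unitGL (cent2 δ) _ hun, (mem_GU_iff_cstar hF _).mpr hun, ?_, cent2_det h2 δ⟩
        rw [hUm]
        exact cent2_comm h2 i δ
    · exfalso
      rw [hUtr] at f3
      apply h3F
      linear_combination f3
  · -- type (0,2,2): `mU0 i`
    obtain ⟨Ug, hUg⟩ : ∃ Ug : GL (Fin 4) F, Ug = cubeGL (mU0 i) hU0c := ⟨_, rfl⟩
    have hUm : (Ug : M4 F) = mU0 i := by rw [hUg]; rfl
    have hUGU : Ug ∈ Cfsg.GU 4 F p :=
      hGUM F p i hF hp hp4 hi hip Ug (Or.inr (Or.inl hUm))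
    have hUu := (mem_GU_iff_cstar hF Ug).mp hUGU
    rw [hUm] at hUu
    have hUtype := cube_type hF ω hω h1ω hωp h2 (mU0 i) hU0c hUu
    have hUtr : (mU0 i).trace = -2 := by
      simp [mU0, Matrix.trace, Fin.sum_univ_four]
      field_simp
      ring
    rcases hUtype with ⟨-, -, -, f3⟩ | ⟨-, -, -, f3⟩ | ⟨f0, f1, f2, -⟩
    · exfalso
      rw [hUtr] at f3
      have h6 : (2 : F) * 3 = 0 := by linear_combination -f3
      rcases mul_eq_zero.mp h6 with h | h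
      · exact h2 h
      · exact h3F h
    · exfalso
      rw [hUtr] at f3
      apply h3F
      linear_combination -f3
    · refine p3_finish p i hF ω hω h1ω x z hz0 hzN t htx ht3 Ug (by rw [hUm]; exact hU0c) hUGU
        (hNU0 F i hi h2 Ug hUm) ?_ ?_
      · intro ζ hζ
        simp only [Finset.mem_insert, Finset.mem_singleton] at hζ
        rw [hUm]
        rcases hζ with h | h | h
        · rw [h, f0, e0]
        · rw [h, f1, e1]
        · rw [h, f2, e2]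
      · intro δ hδ
        obtain ⟨a, c, hdet', hun⟩ := exists_cent0 hF h2 i hi hip ω hω h1ω hωp δ hδ
        refine ⟨unitGL (cent0 i a c) _ hun, (mem_GU_iff_cstar hF _).mpr hun, ?_, ?_⟩
        · rw [hUm]
          exact cent0_comm i a c
        · show (cent0 i a c).det = δ
          rw [cent0_det i a c hi, hdet']

end Cfsg.Agent.Lib.Helper74.U64
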